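/-
The hexacode over a field with four elements, through an explicit table model.
-/
import Cfsg.Prelude.Def_SporadicCombinatorics

set_option autoImplicit false

namespace CfsgLib.Hexa

open Cfsg

/-- The addition table on codes of elements. -/
def addT (p q : Fin 4) : Fin 4 :=
  (![![0, 1, 2, 3], ![1, 0, 3, 2], ![2, 3, 0, 1], ![3, 2, 1, 0]] : Fin 4 → Fin 4 → Fin 4) p q

/-- The multiplication table. -/
def mulT (p q : Fin 4) : Fin 4 :=
  (![![0, 0, 0, 0], ![0, 1, 2, 3], ![0, 2, 3, 1], ![0, 3, 1, 2]] : Fin 4 → Fin 4 → Fin 4) p q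

/-- Generators of the code in the table model. -/
def g1 : Fin 6 → Fin 4 := ![2, 3, 3, 2, 3, 2]
def g2 : Fin 6 → Fin 4 := ![3, 2, 2, 3, 3, 2]
def g3 : Fin 6 → Fin 4 := ![3, 2, 3, 2, 2, 3]

/-- A word in the table model. -/
def wM (a : Fin 4 × Fin 4 × Fin 4) : Fin 6 → Fin 4 := fun i =>
  addT (mulT a.1 (g1 i)) (addT (mulT a.2.1 (g2 i)) (mulT a.2.2 (g3 i)))

theorem wM_inj : Function.Injective wM := by decide +kernel

theorem weights : ∀ a, a ≠ (0, 0, 0) →
    (Finset.univ.filter fun i => wM a i ≠ 0).card = 4 ∨ (Finset.univ.filter fun i => wM a i ≠ 0).card = 6 := by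
  decide +kernel

theorem count4 : (Finset.univ.filter fun a => (Finset.univ.filter fun i => wM a i ≠ 0).card = 4).card = 45 := by
  decide +kernel

theorem count6 : (Finset.univ.filter fun a => (Finset.univ.filter fun i => wM a i ≠ 0).card = 6).card = 18 := by
  decide +kernel

variable {F : Type*} [Field F] [Fintype F] [DecidableEq F] (hF : Fintype.card F = 4) (ω : F)
  (hω : ω ^ 2 + ω + 1 = 0)

/-- The element with a given code. -/
def iota (ω : F) : Fin 4 → F := ![0, 1, ω, ω ^ 2]

include hF in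
theorem two_zero : (2 : F) = 0 := by
  have h1 : (Fintype.card F) • (1 : F) = 0 := card_nsmul_eq_zero
  rw [hF] at h1
  have h2 : (2 : F) * 2 = 0 := by
    have : (4 : ℕ) • (1 : F) = 2 * 2 := by norm_num
    rw [← this]
    exact h1
  exact (mul_self_eq_zero.mp h2)

include hF in
theorem add_self' (x : F) : x + x = 0 := by
  have := two_zero (F := F) hF
  rw [← two_mul, this, zero_mul]

include hF hω in
theorem w_ne_zero : ω ≠ 0 := by
  rintro rfl
  simp at hω

include hF hω in
theorem w_ne_one : ω ≠ 1 := by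
  rintro rfl
  have h2 := two_zero (F := F) hF
  have : (1 : F) = 0 := by
    have h3 : (1 : F) ^ 2 + 1 + 1 = 1 + 2 := by norm_num
    rw [h3, h2] at hω
    simpa using hω
  exact one_ne_zero this

include hF hω in
theorem w2_eq : ω ^ 2 = ω + 1 := by
  have h := add_self' (F := F) hF
  have h1 : ω ^ 2 = -(ω + 1) := by linear_combination hω
  rw [h1]
  have h2 : ω + 1 + (ω + 1) = 0 := h _
  exact neg_eq_of_add_eq_zero_right h2

include hF hω in
theorem iota_inj : Function.Injective (iota ω) := by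
  have h0 := w_ne_zero hF ω hω
  have h1 := w_ne_one hF ω hω
  have h1' : (1 : F) ≠ ω := fun h => h1 h.symm
  have h2 := w2_eq hF ω hω
  have h3 : ω + 1 ≠ 0 := by
    intro h
    have := add_self' (F := F) hF ω
    exact h1 (by
      have h5 : ω + 1 = ω + ω := by rw [h, this]
      exact (add_left_cancel h5).symm)
  have h3' : (0 : F) ≠ ω + 1 := fun h => h3 h.symm
  have h0' : (0 : F) ≠ ω := fun h => h0 h.symm
  intro a b hab
  fin_cases a <;> fin_cases b <;> first | rfl | (exfalso; simp [iota, h0, h0', h1, h1', h2, h3, h3'] at hab)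

include hF hω in
theorem iota_surj : Function.Surjective (iota ω) := by
  have h := (Fintype.bijective_iff_injective_and_card (iota ω)).mpr ⟨iota_inj hF ω hω, by simp [hF]⟩
  exact h.2

include hF hω in
theorem iota_add (p q : Fin 4) : iota ω (addT p q) = iota ω p + iota ω q := by
  have h2 := w2_eq hF ω hω
  have hs := add_self' (F := F) hF
  have e1 : (1 : F) + ω = ω + 1 := add_comm _ _
  have e2 : ω + (ω + 1) = 1 := by rw [← add_assoc, hs ω, zero_add]
  have e3 : (ω + 1) + ω = 1 := by rw [add_comm, e2]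
  have e4 : (1 : F) + (ω + 1) = ω := by rw [add_comm (ω) 1, ← add_assoc, hs 1, zero_add]
  have e5 : (ω + 1) + 1 = ω := by rw [add_comm, e4]
  fin_cases p <;> fin_cases q <;> simp [addT, iota, h2, hs, e1, e2, e3, e4, e5]

include hF hω in
theorem iota_mul (p q : Fin 4) : iota ω (mulT p q) = iota ω p * iota ω q := by
  have h2 := w2_eq hF ω hω
  have hz := two_zero (F := F) hF
  have e1 : ω * ω = ω + 1 := by rw [← pow_two, h2]
  have e2 : ω * (ω + 1) = 1 := by linear_combination hω - hz
  have e3 : (ω + 1) * ω = 1 := by rw [mul_comm, e2]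
  have e4 : (ω + 1) * (ω + 1) = ω := by linear_combination hω
  fin_cases p <;> fin_cases q <;> simp [mulT, iota, h2, e1, e2, e3, e4]

/-- A word of the code. -/
def wF (ω : F) (a : Fin 4 × Fin 4 × Fin 4) : Fin 6 → F := fun i => iota ω (wM a i)

include hF hω in
theorem wF_eq (a : Fin 4 × Fin 4 × Fin 4) :
    wF ω a = iota ω a.1 • (![ω, ω ^ 2, ω ^ 2, ω, ω ^ 2, ω] : Fin 6 → F)
      + iota ω a.2.1 • (![ω ^ 2, ω, ω, ω ^ 2, ω ^ 2, ω] : Fin 6 → F)
      + iota ω a.2.2 • (![ω ^ 2, ω, ω ^ 2, ω, ω, ω ^ 2] : Fin 6 → F) := by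
  funext i
  simp only [wF, wM, iota_add hF ω hω, iota_mul hF ω hω, Pi.add_apply, Pi.smul_apply, smul_eq_mul, add_assoc]
  fin_cases i <;> rfl

include hF hω in
theorem mem_iff (x : Fin 6 → F) : x ∈ hexacode F ω ↔ ∃ a, x = wF ω a := by
  constructor
  · intro hx
    unfold hexacode at hx
    rw [Submodule.mem_span_insert] at hx
    obtain ⟨c1, y, hy, rfl⟩ := hx
    rw [Submodule.mem_span_pair] at hy
    obtain ⟨c2, c3, rfl⟩ := hy
    obtain ⟨p, rfl⟩ := iota_surj hF ω hω c1
    obtain ⟨q, rfl⟩ := iota_surj hF ω hω c2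
    obtain ⟨r, rfl⟩ := iota_surj hF ω hω c3
    refine ⟨(p, q, r), ?_⟩
    rw [wF_eq hF ω hω]
    simp only [add_assoc]
  · rintro ⟨a, rfl⟩
    rw [wF_eq hF ω hω]
    unfold hexacode
    apply Submodule.add_mem
    · apply Submodule.add_mem
      · exact Submodule.smul_mem _ _ (Submodule.subset_span (by simp))
      · exact Submodule.smul_mem _ _ (Submodule.subset_span (by simp))
    · exact Submodule.smul_mem _ _ (Submodule.subset_span (by simp))

include hF hω in
theorem wF_inj : Function.Injective (wF ω) := by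
  intro a b h
  apply wM_inj
  funext i
  exact iota_inj hF ω hω (congrFun h i)

theorem iota_zero : iota ω 0 = 0 := rfl

include hF hω in
theorem wF_ne_zero (a : Fin 4 × Fin 4 × Fin 4) (i : Fin 6) : wF ω a i ≠ 0 ↔ wM a i ≠ 0 := by
  unfold wF
  rw [not_iff_not, ← iota_zero ω]
  exact (iota_inj hF ω hω).eq_iff

include hF hω in
theorem supp_eq (a : Fin 4 × Fin 4 × Fin 4) :
    (Finset.univ.filter fun i => wF ω a i ≠ 0) = Finset.univ.filter fun i => wM a i ≠ 0 := by
  ext i
  simp only [Finset.mem_filter, Finset.mem_univ, true_and]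
  exact wF_ne_zero hF ω hω a i

include hF hω in
theorem ncard_weight (n : ℕ) :
    {x : Fin 6 → F | x ∈ hexacode F ω ∧ (Finset.univ.filter fun i => x i ≠ 0).card = n}.ncard =
      (Finset.univ.filter fun a => (Finset.univ.filter fun i => wM a i ≠ 0).card = n).card := by
  have : {x : Fin 6 → F | x ∈ hexacode F ω ∧ (Finset.univ.filter fun i => x i ≠ 0).card = n}
      = wF ω '' ((Finset.univ.filter fun a => (Finset.univ.filter fun i => wM a i ≠ 0).card = n : Finset _) : Set _) := by
    ext x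
    simp only [Set.mem_ofPred_eq, Set.mem_image, Finset.coe_filter, Finset.mem_univ, true_and]
    constructor
    · rintro ⟨hx, h⟩
      obtain ⟨a, rfl⟩ := (mem_iff hF ω hω x).mp hx
      exact ⟨a, by rw [← supp_eq hF ω hω]; exact h, rfl⟩
    · rintro ⟨a, h, rfl⟩
      exact ⟨(mem_iff hF ω hω _).mpr ⟨a, rfl⟩, by rw [supp_eq hF ω hω]; exact h⟩
  rw [this, Set.ncard_image_of_injective _ (wF_inj hF ω hω), Set.ncard_coe_finset]

include hF hω in
theorem card_code : Nat.card ↥(hexacode F ω) = 64 := by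
  have e : Fin 4 × Fin 4 × Fin 4 ≃ ↥(hexacode F ω) :=
    Equiv.ofBijective (fun a => ⟨wF ω a, (mem_iff hF ω hω _).mpr ⟨a, rfl⟩⟩)
      ⟨fun a b h => wF_inj hF ω hω (congrArg Subtype.val h),
       fun ⟨x, hx⟩ => by
        obtain ⟨a, rfl⟩ := (mem_iff hF ω hω x).mp hx
        exact ⟨a, rfl⟩⟩
  rw [← Nat.card_congr e, Nat.card_eq_fintype_card]
  simp

include hF hω in
theorem weight_cases {x : Fin 6 → F} (hx : x ∈ hexacode F ω) (h0 : x ≠ 0) :
    (Finset.univ.filter fun i => x i ≠ 0).card = 4 ∨ (Finset.univ.filter fun i => x i ≠ 0).card = 6 := by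
  obtain ⟨a, rfl⟩ := (mem_iff hF ω hω x).mp hx
  rw [supp_eq hF ω hω]
  apply weights
  rintro rfl
  apply h0
  funext i
  have : wM (0, 0, 0) i = 0 := by revert i; decide
  simp [wF, this, iota_zero]

end CfsgLib.Hexa
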