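/-
Monomial automorphism groups of codes: the permutation parts form a group, and counting.
-/
import Mathlib
import Cfsg.Prelude.Def_SporadicCombinatorics

set_option autoImplicit false
set_option linter.unusedVariables false
set_option linter.unusedSectionVars false

namespace CfsgLib.Mono

open Cfsg

section
variable {α K : Type*} [Field K]

theorem mono_comp (σ τ : Equiv.Perm α) (c d : α → Kˣ) (x : α → K) :
    monomialMap σ c (monomialMap τ d x) = monomialMap (σ * τ) (fun i => c i * d (σ.symm i)) x := by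
  funext i
  simp only [monomialMap, Units.val_mul, mul_assoc]
  rfl

theorem mono_one (x : α → K) : monomialMap 1 (fun _ => (1 : Kˣ)) x = x := by
  funext i
  simp [monomialMap]
  rfl

theorem mono_smul (σ : Equiv.Perm α) (c : α → Kˣ) (l : Kˣ) (x : α → K) :
    monomialMap σ (fun i => l * c i) x = (l : K) • monomialMap σ c x := by
  funext i
  simp [monomialMap, mul_assoc]

theorem mono_inj (σ : Equiv.Perm α) (c : α → Kˣ) : Function.Injective (monomialMap σ c) := by
  intro x y h
  funext i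
  have h1 := congrFun h (σ i)
  simp only [monomialMap, Equiv.symm_apply_apply] at h1
  exact (Units.mul_right_inj _).mp h1

variable [Finite α]

/-- The permutation parts of the monomial automorphisms of a code. -/
def monoSub (C : Submodule K (α → K)) : Subgroup (Equiv.Perm α) :=
  let S : Submonoid (Equiv.Perm α) :=
    { carrier := {σ | ∃ c : α → Kˣ, ∀ x ∈ C, monomialMap σ c x ∈ C}
      mul_mem' := by
        rintro σ τ ⟨c, hc⟩ ⟨d, hd⟩
        refine ⟨fun i => c i * d (σ.symm i), fun x hx => ?_⟩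
        rw [← mono_comp]
        exact hc _ (hd _ hx)
      one_mem' := ⟨fun _ => 1, fun x hx => by rwa [mono_one]⟩ }
  { S with
    inv_mem' := by
      intro σ hσ
      have h1 : 0 < orderOf σ := orderOf_pos σ
      have h2 : σ⁻¹ = σ ^ (orderOf σ - 1) := by
        apply inv_eq_of_mul_eq_one_right
        rw [← pow_succ', Nat.sub_add_cancel h1, pow_orderOf_eq_one]
      rw [h2]
      exact S.pow_mem hσ _ }

theorem mem_monoSub {C : Submodule K (α → K)} {σ : Equiv.Perm α} :
    σ ∈ monoSub C ↔ ∃ c : α → Kˣ, ∀ x ∈ C, monomialMap σ c x ∈ C := Iff.rfl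

theorem mono_surj [Finite K] {C : Submodule K (α → K)} {σ : Equiv.Perm α} {c : α → Kˣ}
    (h : ∀ x ∈ C, monomialMap σ c x ∈ C) {x : α → K} (hx : x ∈ C) : ∃ y ∈ C, monomialMap σ c y = x := by
  let f : ↥C → ↥C := fun y => ⟨monomialMap σ c y.1, h _ y.2⟩
  have hf : Function.Injective f := fun a b hab => Subtype.ext (mono_inj σ c (congrArg Subtype.val hab))
  obtain ⟨y, hy⟩ := (Finite.injective_iff_surjective.mp hf) ⟨x, hx⟩
  exact ⟨y.1, y.2, congrArg Subtype.val hy⟩

theorem card_mono [Finite K] [Nonempty α] (C : Submodule K (α → K))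
    (hd : ∀ c : α → Kˣ, (∀ x ∈ C, monomialMap 1 c x ∈ C) → ∀ i j, c i = c j) :
    Nat.card {f : Equiv.Perm α × (α → Kˣ) // ∀ x ∈ C, monomialMap f.1 f.2 x ∈ C} =
      Nat.card (monoSub C) * Nat.card Kˣ := by
  choose c₀ hc₀ using fun σ : monoSub C => (mem_monoSub.mp σ.2)
  obtain ⟨i0⟩ := ‹Nonempty α›
  rw [← Nat.card_prod]
  symm
  apply Nat.card_congr
  refine Equiv.ofBijective (fun p => ⟨(p.1.1, fun i => p.2 * c₀ p.1 i), fun x hx => ?_⟩) ⟨?_, ?_⟩
  · show monomialMap p.1.1 (fun i => p.2 * c₀ p.1 i) x ∈ C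
    rw [mono_smul]
    exact C.smul_mem _ (hc₀ p.1 x hx)
  · rintro ⟨σ, l⟩ ⟨τ, m⟩ hab
    have h1 : (σ : Equiv.Perm α) = τ := congrArg (fun f => f.1.1) hab
    have h1' : σ = τ := Subtype.ext h1
    subst h1'
    have h2 := congrFun (congrArg (fun f => f.1.2) hab) i0
    simp only at h2
    have h3 : l = m := mul_right_cancel h2
    rw [h3]
  · rintro ⟨⟨σ, c⟩, hc⟩
    have hσ : σ ∈ monoSub C := ⟨c, hc⟩
    let d : α → Kˣ := fun i => c i * (c₀ ⟨σ, hσ⟩ i)⁻¹
    have hdp : ∀ x ∈ C, monomialMap 1 d x ∈ C := by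
      intro x hx
      obtain ⟨y, hy, rfl⟩ := mono_surj (hc₀ ⟨σ, hσ⟩) hx
      rw [mono_comp]
      have e : monomialMap (1 * σ) (fun i => d i * c₀ ⟨σ, hσ⟩ ((1 : Equiv.Perm α).symm i)) y = monomialMap σ c y := by
        rw [one_mul]
        congr 1
        funext i
        show d i * c₀ ⟨σ, hσ⟩ i = c i
        simp [d]
      rw [e]
      exact hc y hy
    have hconst := hd d hdp
    refine ⟨(⟨σ, hσ⟩, d i0), ?_⟩
    apply Subtype.ext
    apply Prod.ext
    · rfl
    · funext i
      show d i0 * c₀ ⟨σ, hσ⟩ i = c i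
      rw [hconst i0 i]
      simp [d]

end

section Chain
variable {X : Type*} [Finite X]

theorem chain_step (T : Subgroup (Equiv.Perm X)) (b : X) (U : Finset X) (h : ∀ q, q ∉ U → ∃ g ∈ T, g b = q) :
    (Nat.card X - U.card) * Nat.card ↥(T ⊓ MulAction.stabilizer (Equiv.Perm X) b) ≤ Nat.card T := by
  classical
  have h1 := Subgroup.card_mul_index (MulAction.stabilizer ↥T b)
  rw [MulAction.index_stabilizer] at h1
  have h2 : Nat.card ↥(MulAction.stabilizer ↥T b) = Nat.card ↥(T ⊓ MulAction.stabilizer (Equiv.Perm X) b) := by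
    apply Nat.card_congr
    exact
      { toFun := fun g => ⟨g.1.1, g.1.2, g.2⟩
        invFun := fun g => ⟨⟨g.1, g.2.1⟩, g.2.2⟩
        left_inv := fun g => rfl
        right_inv := fun g => rfl }
  rw [h2] at h1
  have h3 : Nat.card X - U.card ≤ (MulAction.orbit ↥T b).ncard := by
    have h4 : ((U : Set X)ᶜ) ⊆ MulAction.orbit ↥T b := by
      intro q hq
      obtain ⟨g, hg, he⟩ := h q (by simpa using hq)
      exact ⟨⟨g, hg⟩, he⟩
    have h5 := Set.ncard_le_ncard h4 (Set.toFinite _)
    have h6 : ((U : Set X)ᶜ).ncard = Nat.card X - U.card := by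
      rw [← Set.ncard_coe_finset U]
      exact Set.ncard_compl _
    omega
  calc (Nat.card X - U.card) * Nat.card ↥(T ⊓ MulAction.stabilizer (Equiv.Perm X) b)
      ≤ (MulAction.orbit ↥T b).ncard * Nat.card ↥(T ⊓ MulAction.stabilizer (Equiv.Perm X) b) := Nat.mul_le_mul_right _ h3
    _ = Nat.card T := by rw [mul_comm]; exact h1

end Chain

end CfsgLib.Mono
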