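/-
The monomial automorphism group of the hexacode.
-/
import Cfsg.Agent.Lib.Hexa.Basic
import Cfsg.Agent.Lib.Hexa.Mono

set_option autoImplicit false
set_option linter.unusedVariables false
set_option linter.unusedSectionVars false
set_option maxRecDepth 100000

namespace CfsgLib.Hexa

open Cfsg CfsgLib.Mono

abbrev Trip := Fin 4 × Fin 4 × Fin 4
abbrev Tab := (Fin 6 → Fin 6) × (Fin 6 → Fin 6) × (Fin 6 → Fin 4) × Trip × Trip × Trip

/-- Explicit monomial automorphisms in the table model, with the images of the generators. -/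
def rowsT : List Tab := [
  (![1, 0, 2, 3, 5, 4], ![1, 0, 2, 3, 5, 4], ![1, 1, 1, 1, 1, 1], (0, 0, 1), (1, 1, 1), (1, 0, 0)),
  (![2, 0, 1, 3, 4, 5], ![1, 2, 0, 3, 4, 5], ![1, 1, 1, 1, 2, 3], (3, 2, 1), (2, 3, 1), (1, 0, 0)),
  (![3, 0, 1, 2, 5, 4], ![1, 2, 3, 0, 5, 4], ![1, 1, 1, 1, 3, 2], (3, 2, 1), (2, 3, 1), (1, 1, 1)),
  (![4, 0, 1, 2, 3, 5], ![1, 2, 3, 4, 0, 5], ![1, 2, 3, 1, 3, 2], (2, 0, 0), (1, 1, 1), (0, 3, 0)),
  (![5, 0, 1, 2, 4, 3], ![1, 2, 3, 5, 4, 0], ![1, 3, 2, 1, 3, 2], (0, 0, 1), (0, 3, 0), (2, 3, 1)),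
  (![0, 2, 1, 3, 5, 4], ![0, 2, 1, 3, 5, 4], ![1, 1, 1, 1, 2, 3], (1, 0, 0), (0, 1, 0), (3, 2, 1)),
  (![0, 3, 1, 2, 4, 5], ![0, 2, 3, 1, 4, 5], ![1, 1, 1, 1, 3, 2], (1, 1, 1), (0, 0, 1), (3, 2, 1)),
  (![0, 4, 1, 2, 5, 3], ![0, 2, 3, 5, 1, 4], ![1, 2, 3, 1, 3, 2], (0, 3, 0), (3, 2, 1), (2, 0, 0)),
  (![0, 5, 1, 2, 3, 4], ![0, 2, 3, 4, 5, 1], ![1, 3, 2, 1, 3, 2], (2, 3, 1), (2, 0, 0), (0, 0, 1)),
  (![0, 1, 3, 2, 5, 4], ![0, 1, 3, 2, 5, 4], ![1, 1, 1, 1, 1, 1], (1, 1, 1), (0, 0, 1), (0, 1, 0)),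
  (![0, 1, 4, 2, 3, 5], ![0, 1, 3, 4, 2, 5], ![1, 2, 3, 3, 3, 3], (0, 3, 0), (3, 2, 1), (3, 1, 2)),
  (![0, 1, 5, 2, 4, 3], ![0, 1, 3, 5, 4, 2], ![1, 3, 2, 2, 2, 2], (2, 3, 1), (2, 0, 0), (2, 2, 2)),
  (![0, 1, 2, 4, 5, 3], ![0, 1, 2, 5, 3, 4], ![1, 2, 3, 3, 3, 3], (0, 0, 3), (3, 1, 2), (3, 2, 1)),
  (![0, 1, 2, 5, 3, 4], ![0, 1, 2, 4, 5, 3], ![1, 3, 2, 2, 2, 2], (2, 1, 3), (2, 2, 2), (2, 0, 0)),
  (![0, 1, 2, 3, 4, 5], ![0, 1, 2, 3, 4, 5], ![1, 1, 1, 1, 1, 1], (1, 0, 0), (0, 1, 0), (0, 0, 1))]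

/-- The row condition. -/
def RowOK (r : Tab) : Prop :=
  (∀ i, r.2.1 (r.1 i) = i) ∧ (∀ i, r.1 (r.2.1 i) = i) ∧ (∀ i, r.2.2.1 i ≠ 0) ∧
    (∀ i, mulT (r.2.2.1 i) (wM (1, 0, 0) (r.2.1 i)) = wM r.2.2.2.1 i) ∧
    (∀ i, mulT (r.2.2.1 i) (wM (0, 1, 0) (r.2.1 i)) = wM r.2.2.2.2.1 i) ∧
    (∀ i, mulT (r.2.2.1 i) (wM (0, 0, 1) (r.2.1 i)) = wM r.2.2.2.2.2 i)

instance (r : Tab) : Decidable (RowOK r) := by
  unfold RowOK
  infer_instance

theorem rows_ok : ∀ r ∈ rowsT, RowOK r := by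
  decide +kernel

def PresT (g : Fin 6 → Fin 6) (c : Fin 6 → Fin 4) : Prop :=
  ∀ a, ∃ b, ∀ i, mulT (c i) (wM a (g i)) = wM b i

/-- Parity checks of the code. -/
def hT : Fin 3 → Fin 6 → Fin 4 := ![
  ![0, 0, 1, 1, 1, 1],
  ![0, 1, 0, 1, 3, 2],
  ![1, 0, 0, 1, 2, 3]]

def parT (x : Fin 6 → Fin 4) (k : Fin 3) : Fin 4 :=
  addT (mulT (hT k 0) (x 0)) (addT (mulT (hT k 1) (x 1)) (addT (mulT (hT k 2) (x 2))
    (addT (mulT (hT k 3) (x 3)) (addT (mulT (hT k 4) (x 4)) (mulT (hT k 5) (x 5))))))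

theorem parT_wM : ∀ (a : Trip) (k : Fin 3), parT (wM a) k = 0 := by decide +kernel

/-- The parity conditions on the images of the three generators. -/
def ParOK (g : Fin 6 → Fin 6) (c : Fin 6 → Fin 4) : Bool :=
  [((1, 0, 0) : Trip), (0, 1, 0), (0, 0, 1)].all fun a =>
    [(0 : Fin 3), 1, 2].all fun k => parT (fun i => mulT (c i) (wM a (g i))) k == 0

theorem parOK_of_pres {g : Fin 6 → Fin 6} {c : Fin 6 → Fin 4} (h : PresT g c) : ParOK g c = true := by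
  have key : ∀ (a : Trip) (k : Fin 3), parT (fun i => mulT (c i) (wM a (g i))) k = 0 := by
    intro a k
    obtain ⟨b, hb⟩ := h a
    have : (fun i => mulT (c i) (wM a (g i))) = wM b := funext hb
    rw [this]
    exact parT_wM b k
  unfold ParOK
  simp only [List.all_eq_true, beq_iff_eq]
  intro a _ k _
  exact key a k

theorem lvl0 : ∀ q : Fin 6, ∃ r ∈ rowsT, r.1 0 = q := by decide +kernel
theorem lvl1 : ∀ q : Fin 6, q ≠ 0 → ∃ r ∈ rowsT, r.1 0 = 0 ∧ r.1 1 = q := by decide +kernel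
theorem lvl2 : ∀ q : Fin 6, q ≠ 0 → q ≠ 1 → ∃ r ∈ rowsT, r.1 0 = 0 ∧ r.1 1 = 1 ∧ r.1 2 = q := by decide +kernel
theorem lvl3 : ∀ q : Fin 6, q ≠ 0 → q ≠ 1 → q ≠ 2 → ∃ r ∈ rowsT, r.1 0 = 0 ∧ r.1 1 = 1 ∧ r.1 2 = 2 ∧ r.1 3 = q := by
  decide +kernel

theorem diagT : ∀ c0 c1 c2 c3 c4 c5 : Fin 4, c0 ≠ 0 → c1 ≠ 0 → c2 ≠ 0 → c3 ≠ 0 → c4 ≠ 0 → c5 ≠ 0 →
    ParOK id ![c0, c1, c2, c3, c4, c5] = true → c0 = c1 ∧ c0 = c2 ∧ c0 = c3 ∧ c0 = c4 ∧ c0 = c5 := by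
  decide +kernel

def swT : Fin 6 → Fin 6 := ![1, 0, 2, 3, 4, 5]

set_option synthInstance.maxSize 100000 in
set_option synthInstance.maxHeartbeats 0 in
theorem swapT : ∀ c0 c1 c2 c3 c4 c5 : Fin 4, c0 ≠ 0 → c1 ≠ 0 → c2 ≠ 0 → c3 ≠ 0 → c4 ≠ 0 → c5 ≠ 0 →
    ParOK swT ![c0, c1, c2, c3, c4, c5] = false := by
  decide +kernel

variable {F : Type*} [Field F] [Fintype F] [DecidableEq F] (hF : Fintype.card F = 4) (ω : F)
  (hω : ω ^ 2 + ω + 1 = 0)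

include hF hω

theorem iota_ne (p : Fin 4) (hp : p ≠ 0) : iota ω p ≠ 0 := by
  intro h
  apply hp
  apply iota_inj hF ω hω
  rw [h]
  rfl

theorem gen1_eq : (![ω, ω ^ 2, ω ^ 2, ω, ω ^ 2, ω] : Fin 6 → F) = wF ω (1, 0, 0) := by
  funext i
  fin_cases i <;> simp [wF, wM, g1, g2, g3, iota, addT, mulT]

theorem gen2_eq : (![ω ^ 2, ω, ω, ω ^ 2, ω ^ 2, ω] : Fin 6 → F) = wF ω (0, 1, 0) := by
  funext i
  fin_cases i <;> simp [wF, wM, g1, g2, g3, iota, addT, mulT]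

theorem gen3_eq : (![ω ^ 2, ω, ω ^ 2, ω, ω, ω ^ 2] : Fin 6 → F) = wF ω (0, 0, 1) := by
  funext i
  fin_cases i <;> simp [wF, wM, g1, g2, g3, iota, addT, mulT]

/-- From the table to the field. -/
theorem pres_of_T (g : Fin 6 → Fin 6) (c : Fin 6 → Fin 4) (hc : ∀ i, c i ≠ 0) (b1 b2 b3 : Trip)
    (h1 : ∀ i, mulT (c i) (wM (1, 0, 0) (g i)) = wM b1 i)
    (h2 : ∀ i, mulT (c i) (wM (0, 1, 0) (g i)) = wM b2 i)
    (h3 : ∀ i, mulT (c i) (wM (0, 0, 1) (g i)) = wM b3 i)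
    (σ : Equiv.Perm (Fin 6)) (hσ : ∀ i, σ.symm i = g i) : σ ∈ monoSub (hexacode F ω) := by
  refine mem_monoSub.mpr ⟨fun i => Units.mk0 (iota ω (c i)) (iota_ne hF ω hω _ (hc i)), fun x hx => ?_⟩
  have himg : ∀ (a b : Trip), (∀ i, mulT (c i) (wM a (g i)) = wM b i) →
      monomialMap σ (fun i => Units.mk0 (iota ω (c i)) (iota_ne hF ω hω _ (hc i))) (wF ω a) ∈ hexacode F ω := by
    intro a b hab
    rw [mem_iff hF ω hω]
    refine ⟨b, ?_⟩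
    funext i
    simp only [monomialMap, Units.val_mk0, wF, hσ]
    rw [← iota_mul hF ω hω, hab]
  induction hx using Submodule.span_induction with
  | mem x hx =>
    simp only [Set.mem_insert_iff, Set.mem_singleton_iff] at hx
    rcases hx with rfl | rfl | rfl
    · rw [gen1_eq hF ω hω]
      exact himg _ _ h1
    · rw [gen2_eq hF ω hω]
      exact himg _ _ h2
    · rw [gen3_eq hF ω hω]
      exact himg _ _ h3
  | zero =>
    have : monomialMap σ (fun i => Units.mk0 (iota ω (c i)) (iota_ne hF ω hω _ (hc i))) (0 : Fin 6 → F) = 0 := by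
      funext i
      simp [monomialMap]
    rw [this]
    exact Submodule.zero_mem _
  | add x y _ _ hx hy =>
    have : monomialMap σ (fun i => Units.mk0 (iota ω (c i)) (iota_ne hF ω hω _ (hc i))) (x + y) =
        monomialMap σ (fun i => Units.mk0 (iota ω (c i)) (iota_ne hF ω hω _ (hc i))) x +
        monomialMap σ (fun i => Units.mk0 (iota ω (c i)) (iota_ne hF ω hω _ (hc i))) y := by
      funext i
      simp [monomialMap, mul_add]
    rw [this]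
    exact Submodule.add_mem _ hx hy
  | smul a x _ hx =>
    have : monomialMap σ (fun i => Units.mk0 (iota ω (c i)) (iota_ne hF ω hω _ (hc i))) (a • x) =
        a • monomialMap σ (fun i => Units.mk0 (iota ω (c i)) (iota_ne hF ω hω _ (hc i))) x := by
      funext i
      simp [monomialMap, mul_left_comm]
    rw [this]
    exact Submodule.smul_mem _ a hx

/-- Codes of units. -/
theorem exists_code (c : Fin 6 → Fˣ) : ∃ c' : Fin 6 → Fin 4, (∀ i, c' i ≠ 0) ∧ ∀ i, iota ω (c' i) = c i := by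
  choose c' hc' using fun i => iota_surj hF ω hω (c i : F)
  refine ⟨c', fun i h => ?_, hc'⟩
  have := hc' i
  rw [h] at this
  exact (c i).ne_zero (by rw [← this]; rfl)

/-- From the field to the table. -/
theorem T_of_pres (c : Fin 6 → Fˣ) (c' : Fin 6 → Fin 4) (hc' : ∀ i, iota ω (c' i) = c i)
    (σ : Equiv.Perm (Fin 6)) (g : Fin 6 → Fin 6) (hσ : ∀ i, σ.symm i = g i)
    (h : ∀ x ∈ hexacode F ω, monomialMap σ c x ∈ hexacode F ω) : PresT g c' := by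
  intro a
  have h1 := h (wF ω a) ((mem_iff hF ω hω _).mpr ⟨a, rfl⟩)
  obtain ⟨b, hb⟩ := (mem_iff hF ω hω _).mp h1
  refine ⟨b, fun i => ?_⟩
  apply iota_inj hF ω hω
  have h2 := congrFun hb i
  simp only [monomialMap, wF, hσ] at h2
  rw [iota_mul hF ω hω, hc']
  exact h2

theorem diag_const (c : Fin 6 → Fˣ) (h : ∀ x ∈ hexacode F ω, monomialMap 1 c x ∈ hexacode F ω) (i j : Fin 6) :
    c i = c j := by
  obtain ⟨c', hne, hc'⟩ := exists_code hF ω hω c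
  have hT := T_of_pres hF ω hω c c' hc' 1 id (fun i => rfl) h
  have e : c' = ![c' 0, c' 1, c' 2, c' 3, c' 4, c' 5] := by
    funext k
    fin_cases k <;> rfl
  rw [e] at hT
  obtain ⟨h1, h2, h3, h4, h5⟩ := diagT _ _ _ _ _ _ (hne 0) (hne 1) (hne 2) (hne 3) (hne 4) (hne 5) (parOK_of_pres hT)
  have hall : ∀ k, c' k = c' 0 := by
    intro k
    fin_cases k
    · rfl
    · exact h1.symm
    · exact h2.symm
    · exact h3.symm
    · exact h4.symm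
    · exact h5.symm
  apply Units.ext
  rw [← hc', ← hc', hall i, hall j]

theorem swap_not_mem : Equiv.swap (0 : Fin 6) 1 ∉ monoSub (hexacode F ω) := by
  rintro ⟨c, hc⟩
  obtain ⟨c', hne, hc'⟩ := exists_code hF ω hω c
  have hT := T_of_pres hF ω hω c c' hc' (Equiv.swap (0 : Fin 6) 1) swT (by decide) hc
  have e : c' = ![c' 0, c' 1, c' 2, c' 3, c' 4, c' 5] := by
    funext k
    fin_cases k <;> rfl
  rw [e] at hT
  have h1 := parOK_of_pres hT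
  rw [swapT _ _ _ _ _ _ (hne 0) (hne 1) (hne 2) (hne 3) (hne 4) (hne 5)] at h1
  exact absurd h1 (by decide)

theorem row_mem (r : Tab) (hr : r ∈ rowsT) : ∃ σ ∈ monoSub (hexacode F ω), ∀ i, σ i = r.1 i := by
  obtain ⟨h1, h2, h3, h4, h5, h6⟩ := rows_ok r hr
  exact ⟨⟨r.1, r.2.1, h1, h2⟩, pres_of_T hF ω hω r.2.1 r.2.2.1 h3 _ _ _ h4 h5 h6 _ (fun i => rfl), fun i => rfl⟩

theorem card_sub_ge : 360 ≤ Nat.card ↥(monoSub (hexacode F ω)) := by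
  set T0 := monoSub (hexacode F ω) with hT0
  let st := fun b : Fin 6 => MulAction.stabilizer (Equiv.Perm (Fin 6)) b
  have s0 : (Nat.card (Fin 6) - (∅ : Finset (Fin 6)).card) * Nat.card ↥(T0 ⊓ st 0) ≤ Nat.card T0 := by
    apply chain_step
    intro q _
    obtain ⟨r, hr, h1⟩ := lvl0 q
    obtain ⟨σ, hσ, he⟩ := row_mem hF ω hω r hr
    exact ⟨σ, hσ, by rw [he, h1]⟩
  have s1 : (Nat.card (Fin 6) - ({0} : Finset (Fin 6)).card) * Nat.card ↥((T0 ⊓ st 0) ⊓ st 1) ≤ Nat.card ↥(T0 ⊓ st 0) := by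
    apply chain_step
    intro q hq
    obtain ⟨r, hr, h1, h2⟩ := lvl1 q (by simpa using hq)
    obtain ⟨σ, hσ, he⟩ := row_mem hF ω hω r hr
    refine ⟨σ, ⟨hσ, ?_⟩, by rw [he, h2]⟩
    show σ 0 = 0
    rw [he, h1]
  have s2 : (Nat.card (Fin 6) - ({0, 1} : Finset (Fin 6)).card) * Nat.card ↥(((T0 ⊓ st 0) ⊓ st 1) ⊓ st 2) ≤ Nat.card ↥((T0 ⊓ st 0) ⊓ st 1) := by
    apply chain_step
    intro q hq
    simp only [Finset.mem_insert, Finset.mem_singleton, not_or] at hq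
    obtain ⟨r, hr, h1, h2, h3⟩ := lvl2 q hq.1 hq.2
    obtain ⟨σ, hσ, he⟩ := row_mem hF ω hω r hr
    refine ⟨σ, ⟨⟨hσ, ?_⟩, ?_⟩, by rw [he, h3]⟩
    · show σ 0 = 0
      rw [he, h1]
    · show σ 1 = 1
      rw [he, h2]
  have s3 : (Nat.card (Fin 6) - ({0, 1, 2} : Finset (Fin 6)).card) * Nat.card ↥((((T0 ⊓ st 0) ⊓ st 1) ⊓ st 2) ⊓ st 3) ≤ Nat.card ↥(((T0 ⊓ st 0) ⊓ st 1) ⊓ st 2) := by
    apply chain_step
    intro q hq
    simp only [Finset.mem_insert, Finset.mem_singleton, not_or] at hq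
    obtain ⟨r, hr, h1, h2, h3, h4⟩ := lvl3 q hq.1 hq.2.1 hq.2.2
    obtain ⟨σ, hσ, he⟩ := row_mem hF ω hω r hr
    refine ⟨σ, ⟨⟨⟨hσ, ?_⟩, ?_⟩, ?_⟩, by rw [he, h4]⟩
    · show σ 0 = 0
      rw [he, h1]
    · show σ 1 = 1
      rw [he, h2]
    · show σ 2 = 2
      rw [he, h3]
  have s4 : 1 ≤ Nat.card ↥((((T0 ⊓ st 0) ⊓ st 1) ⊓ st 2) ⊓ st 3) := Nat.card_pos
  have hc : Nat.card (Fin 6) = 6 := by simp
  rw [hc] at s0 s1 s2 s3
  simp only [Finset.card_empty] at s0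
  have c1 : ({0} : Finset (Fin 6)).card = 1 := by decide
  have c2 : ({0, 1} : Finset (Fin 6)).card = 2 := by decide
  have c3 : ({0, 1, 2} : Finset (Fin 6)).card = 3 := by decide
  rw [c1] at s1
  rw [c2] at s2
  rw [c3] at s3
  omega

theorem sub_eq_alt : monoSub (hexacode F ω) = alternatingGroup (Fin 6) := by
  apply Equiv.Perm.eq_alternatingGroup_of_index_eq_two
  have h1 := Subgroup.card_mul_index (monoSub (hexacode F ω))
  have h2 := card_sub_ge hF ω hω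
  have h3 : Nat.card (Equiv.Perm (Fin 6)) = 720 := by
    rw [Nat.card_eq_fintype_card, Fintype.card_perm]
    decide
  rw [h3] at h1
  have h4 : (monoSub (hexacode F ω)).index ≠ 1 := by
    intro h
    rw [Subgroup.index_eq_one] at h
    apply swap_not_mem hF ω hω
    rw [h]
    trivial
  have h5 : (monoSub (hexacode F ω)).index ≠ 0 := by
    intro h
    rw [h] at h1
    omega
  have h6 : (monoSub (hexacode F ω)).index ≤ 2 := by
    by_contra hc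
    have : 3 ≤ (monoSub (hexacode F ω)).index := by omega
    have := Nat.mul_le_mul h2 this
    omega
  omega

theorem card_units : Nat.card Fˣ = 3 := by
  rw [Nat.card_eq_fintype_card, Fintype.card_units, hF]

theorem main_result :
    Nat.card {f : Equiv.Perm (Fin 6) × (Fin 6 → Fˣ) // (∀ x ∈ hexacode F ω, monomialMap f.1 f.2 x ∈ hexacode F ω)} = 1080 ∧
    (∀ c : Fin 6 → Fˣ, (∀ x ∈ hexacode F ω, monomialMap 1 c x ∈ hexacode F ω) → ∀ i j, c i = c j) ∧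
    {σ : Equiv.Perm (Fin 6) | ∃ c : Fin 6 → Fˣ, (∀ x ∈ hexacode F ω, monomialMap σ c x ∈ hexacode F ω)} =
      (alternatingGroup (Fin 6) : Set (Equiv.Perm (Fin 6))) := by
  refine ⟨?_, fun c h i j => diag_const hF ω hω c h i j, ?_⟩
  · rw [card_mono _ (fun c h i j => diag_const hF ω hω c h i j), card_units hF ω hω, sub_eq_alt hF ω hω]
    have : Nat.card (alternatingGroup (Fin 6)) = 360 := by
      rw [nat_card_alternatingGroup, Nat.card_eq_fintype_card, Fintype.card_fin]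
      decide +kernel
    rw [this]
  · rw [← sub_eq_alt hF ω hω]
    rfl

end CfsgLib.Hexa
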